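import Cfsg.Agent.S1237

/-!
The Sylow 2-subgroup of `PSU(3, 4)` has no pair of automorphisms acting on the centre as a
three-cycle and a transposition: the squaring form modulo one central involution would have six zeros
and a totally singular plane.
-/

set_option autoImplicit false
set_option linter.unusedSectionVars false

namespace Cfsg.Agent.TwoRankTwo

universe u v

/-- A form on a group of order 16 with a totally singular subgroup of order four has not six
zeros. -/
theorem zeros_ne_six {Q : Type u} [CommGroup Q] [Fintype Q] (hQ : Fintype.card Q = 16)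
    (g : Q → ZMod 2) (hB : ∀ a b c, g (a * b * c) + g (a * b) + g c =
      (g (a * c) + g a + g c) + (g (b * c) + g b + g c))
    (W : Subgroup Q) (hW : Nat.card W = 4) (hgW : ∀ w ∈ W, g w = 0) :
    Nat.card {a : Q // g a = 0} ≠ 6 := by
  classical
  intro h6
  let χ : ZMod 2 → ℤ := fun b => if b = 0 then 1 else -1
  have hχ : ∀ b c, χ (b + c) = χ b * χ c := by decide
  let B : Q → Q → ZMod 2 := fun a b => g (a * b) + g a + g b
  have two : ∀ b : ZMod 2, b + b = 0 := by decide
  have expand : ∀ a b, g (a * b) = g a + g b + B a b := by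
    intro a b
    show g (a * b) = g a + g b + (g (a * b) + g a + g b)
    linear_combination -(two (g a)) - two (g b)
  have bil : ∀ a b c, B (a * b) c = B a c + B b c := hB
  have sym : ∀ a b, B a b = B b a := fun a b => by
    simp only [B, mul_comm a b]; ring
  have hWB : ∀ a ∈ W, ∀ b ∈ W, B a b = 0 := fun a ha b hb => by
    simp [B, hgW _ ha, hgW _ hb, hgW _ (mul_mem ha hb)]
  -- the radical of the singular subgroup
  have hB1 : ∀ c, B 1 c = 0 := fun c => by
    have h := bil 1 1 c
    rw [one_mul, eq_comm, add_eq_left] at h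
    exact h
  let R : Subgroup Q :=
    { carrier := {v | ∀ w ∈ W, B v w = 0}
      one_mem' := fun w _ => hB1 w
      mul_mem' := fun {a b} ha hb w hw => by rw [bil, ha w hw, hb w hw, add_zero]
      inv_mem' := fun {a} ha w hw => by
        have h := bil a⁻¹ a w
        rw [inv_mul_cancel, hB1, ha w hw, add_zero] at h
        exact h.symm }
  have hWR : W ≤ R := fun a ha w hw => hWB a ha w hw
  -- the character sum over a coset
  have hsum : ∀ v, ∑ w : W, χ (g (v * w)) = if v ∈ R then 4 * χ (g v) else 0 := by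
    intro v
    have e : ∀ w : W, χ (g (v * w)) = χ (g v) * χ (B v w) := fun w => by
      rw [expand, hgW _ w.2, add_zero, hχ]
    rw [Finset.sum_congr rfl fun w _ => e w, ← Finset.mul_sum]
    split_ifs with hv
    · rw [Finset.sum_congr rfl fun (w : W) _ => (by rw [hv w w.2]; rfl : χ (B v w) = 1)]
      rw [Finset.sum_const, Finset.card_univ, ← Nat.card_eq_fintype_card, hW]
      simp [mul_comm]
    · obtain ⟨w₀, hw₀, h0⟩ : ∃ w ∈ W, B v w ≠ 0 := by
        by_contra! h
        exact hv h
      have h1 : B v w₀ = 1 := (by decide : ∀ b : ZMod 2, b ≠ 0 → b = 1) _ h0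
      have hneg : ∑ w : W, χ (B v w) = -∑ w : W, χ (B v w) := by
        rw [← Finset.sum_neg_distrib]
        refine Fintype.sum_equiv (Equiv.mulLeft (⟨w₀, hw₀⟩ : W)) _ _ fun w => ?_
        have e2 : B v (w₀ * w) = B v w₀ + B v w := by rw [sym, bil, sym w₀, sym (w : Q)]
        show χ (B v w) = -χ (B v (w₀ * w))
        rw [e2, h1, hχ 1 (B v w)]
        simp only [χ]
        split_ifs <;> simp_all
      rw [show ∑ w : W, χ (B v w) = 0 by linarith, mul_zero]
  set S := ∑ a : Q, χ (g a)
  have hS : S = ∑ v : Q, if v ∈ R then χ (g v) else 0 := by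
    have h4 : ∑ v : Q, ∑ w : W, χ (g (v * w)) = 4 * S := by
      rw [Finset.sum_comm, Finset.sum_congr rfl fun (w : W) _ =>
        Fintype.sum_equiv (Equiv.mulRight (w : Q)) (fun v => χ (g (v * w))) (fun a => χ (g a))
          fun _ => rfl, Finset.sum_const, Finset.card_univ,
        ← Nat.card_eq_fintype_card, hW]
      simp [S]
    rw [Finset.sum_congr rfl fun v _ => hsum v] at h4
    have : ∑ v : Q, (if v ∈ R then 4 * χ (g v) else 0) =
        4 * ∑ v : Q, if v ∈ R then χ (g v) else 0 := by
      rw [Finset.mul_sum]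
      exact Finset.sum_congr rfl fun v _ => by split_ifs <;> simp
    rw [this] at h4
    linarith
  have count : ∀ s : Finset Q, ∑ a ∈ s, χ (g a) = (s.card : ℤ) - 2 * (s.filter fun a => g a ≠ 0).card := by
    intro s
    induction s using Finset.induction_on with
    | empty => simp
    | insert a s ha ih =>
      rw [Finset.sum_insert ha, ih, Finset.card_insert_of_notMem ha, Finset.filter_insert]
      by_cases h : g a = 0
      · rw [if_neg (not_not.2 h)]; simp [χ, h]; ring
      · rw [if_pos h, Finset.card_insert_of_notMem (by simp [ha])]; simp [χ, h]; ring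
  have hzero : (Finset.univ.filter fun a : Q => g a = 0).card = 6 := by
    rw [← h6, Nat.card_eq_fintype_card, Fintype.card_subtype]
  have hS4 : S = -4 := by
    have h := Finset.card_filter_add_card_filter_not (s := (Finset.univ : Finset Q)) fun a => g a = 0
    rw [Finset.card_univ, hQ, hzero] at h
    show ∑ a : Q, χ (g a) = -4
    rw [count, Finset.card_univ, hQ]
    have : (Finset.univ.filter fun a : Q => g a ≠ 0).card = 10 := by
      change 6 + (Finset.univ.filter fun a : Q => g a ≠ 0).card = 16 at h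
      omega
    rw [this]; norm_num
  have hR : ∑ v : Q, (if v ∈ R then χ (g v) else 0) = (Nat.card R : ℤ) -
      2 * Nat.card {a : Q // a ∈ R ∧ g a ≠ 0} := by
    rw [← Finset.sum_filter, count, Finset.filter_filter, ← Fintype.card_subtype,
      ← Fintype.card_subtype, ← Nat.card_eq_fintype_card, ← Nat.card_eq_fintype_card]
  -- the ones in the radical form cosets of `W`
  have hfour : 4 ∣ Nat.card {a : Q // a ∈ R ∧ g a ≠ 0} := by
    have hinv : ∀ a, a ∈ R → ∀ w ∈ W, g (a * w) = g a := fun a ha w hw => by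
      rw [expand, hgW w hw, ha w hw, add_zero, add_zero]
    have hset : (QuotientGroup.mk : Q → Q ⧸ W) ⁻¹' (QuotientGroup.mk '' {a : Q | a ∈ R ∧ g a ≠ 0}) =
        {a : Q | a ∈ R ∧ g a ≠ 0} := by
      refine Set.Subset.antisymm ?_ (Set.subset_preimage_image _ _)
      rintro a ⟨b, ⟨hbR, hb⟩, e⟩
      have hw : b⁻¹ * a ∈ W := QuotientGroup.eq.1 e
      have hab : a = b * (b⁻¹ * a) := by group
      rw [hab]
      exact ⟨R.mul_mem hbR (hWR hw), by rw [hinv b hbR _ hw]; exact hb⟩
    have := Nat.card_congr (QuotientGroup.preimageMkEquivSubgroupProdSet W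
      (QuotientGroup.mk '' {a : Q | a ∈ R ∧ g a ≠ 0}))
    rw [hset, Nat.card_prod, hW] at this
    exact Dvd.intro _ this.symm
  rw [hS, hR] at hS4
  obtain ⟨k, hk⟩ := hfour
  have hdvd : Nat.card R ∣ 16 := by
    rw [← hQ, ← Nat.card_eq_fintype_card]; exact Subgroup.card_subgroup_dvd_card R
  have h4R : 4 ∣ Nat.card R := hW ▸ Subgroup.card_dvd_of_le hWR
  by_cases hR4 : Nat.card R = 4
  · have hRW : W = R := Subgroup.eq_of_le_of_card_ge hWR (by omega)
    have h0 : Nat.card {a : Q // a ∈ R ∧ g a ≠ 0} = 0 := by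
      haveI : IsEmpty {a : Q // a ∈ R ∧ g a ≠ 0} :=
        ⟨fun a => a.2.2 (hgW _ (by rw [hRW]; exact a.2.1))⟩
      exact Nat.card_of_isEmpty
    omega
  · have : Nat.card R = 8 ∨ Nat.card R = 16 := by
      have := Nat.le_of_dvd (by norm_num) hdvd
      obtain ⟨j, hj⟩ := h4R
      rw [hj] at hdvd hR4 this ⊢
      have : j ∣ 4 := Nat.dvd_of_mul_dvd_mul_left (by norm_num) (show 4 * j ∣ 4 * 4 from hdvd)
      have hj4 := Nat.le_of_dvd (by norm_num) this
      interval_cases j <;> omega
    omega

/-- No three-cycle together with a transposition on the centre. -/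
theorem false_of_swap {P : Type u} [Group P] [Finite P] (hcard : Nat.card P = 64)
    (hZ : Nat.card (Subgroup.center P) = 4) (hsq : ∀ x : P, x * x ∈ Subgroup.center P)
    (hinv : ∀ x : P, x * x = 1 → x ∈ Subgroup.center P)
    (hexp : ∀ z ∈ Subgroup.center P, z * z = 1) (σ τ : MulAut P) (z u : P)
    (hz : z ∈ Subgroup.center P) (hu : u ∈ Subgroup.center P) (hz1 : z ≠ 1) (hu1 : u ≠ 1)
    (huz : u ≠ z) (hσz : σ z = z * u) (hσu : σ u = z) (hτz : τ z = z) (hτu : τ u = z * u)
    (hτ2 : ∀ x : P, x⁻¹ * τ (τ x) ∈ Subgroup.center P) : False := by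
  classical
  letI := Fintype.ofFinite P
  set Z := Subgroup.center P with hZdef
  have zu1 : z * u ≠ 1 := fun h => huz (by rw [← mul_right_inj z, h, hexp z hz])
  have zuz : z * u ≠ z := fun h => hu1 (mul_eq_left.1 h)
  have zuu : z * u ≠ u := fun h => hz1 (mul_eq_right.1 h)
  have hcases : ∀ c ∈ Z, c = 1 ∨ c = z ∨ c = u ∨ c = z * u := by
    intro c hc
    by_contra! h
    obtain ⟨h1, h2, h3, h4⟩ := h
    have hsub : ({1, z, u, z * u, c} : Set P) ⊆ (Z : Set P) := by
      intro x hx
      simp only [Set.mem_insert_iff, Set.mem_singleton_iff] at hx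
      rcases hx with rfl | rfl | rfl | rfl | rfl
      exacts [one_mem Z, hz, hu, mul_mem hz hu, hc]
    have hn := Set.ncard_le_ncard hsub
    rw [Set.ncard_insert_of_notMem (by simp [Ne.symm hz1, Ne.symm hu1, Ne.symm zu1, Ne.symm h1]),
      Set.ncard_insert_of_notMem (by simp [Ne.symm huz, Ne.symm zuz, Ne.symm h2]),
      Set.ncard_insert_of_notMem (by simp [Ne.symm zuu, Ne.symm h3]),
      Set.ncard_pair (Ne.symm h4), ← Nat.card_coe_set_eq, SetLike.coe_sort_coe, hZ] at hn
    omega
  let h : P → ZMod 2 := fun c => if c = 1 ∨ c = z then 0 else 1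
  have h_one : h 1 = 0 := by simp [h]
  have h_z : h z = 0 := by simp [h]
  have h_u : h u = 1 := by simp [h, hu1, huz]
  have h_zu : h (z * u) = 1 := by simp [h, zu1, zuz]
  have hzu' : u * z = z * u := Subgroup.mem_center_iff.1 hz u
  have hadd : ∀ c ∈ Z, ∀ d ∈ Z, h (c * d) = h c + h d := by
    intro c hc d hd
    have ezz := hexp z hz
    have euu := hexp u hu
    have e1 : z * (z * u) = u := by rw [← mul_assoc, ezz, one_mul]
    have e2 : u * (z * u) = z := by rw [← mul_assoc, hzu', mul_assoc, euu, mul_one]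
    have e3 : z * u * z = u := by rw [mul_assoc, hzu', e1]
    have e4 : z * u * u = z := by rw [mul_assoc, euu, mul_one]
    have e5 : z * u * (z * u) = 1 := hexp _ (mul_mem hz hu)
    have t : (1 : ZMod 2) + 1 = 0 := by decide
    rcases hcases c hc with rfl | rfl | rfl | rfl <;>
      rcases hcases d hd with rfl | rfl | rfl | rfl <;>
      simp only [one_mul, mul_one, ezz, euu, hzu', e1, e2, e3, e4, e5, h_one, h_z, h_u, h_zu,
        add_zero, zero_add, t]
  let Q := P ⧸ Z
  have hQcomm : ∀ a b : Q, a * b = b * a := by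
    have hsq1 : ∀ a : Q, a * a = 1 := fun a => by
      obtain ⟨x, rfl⟩ := QuotientGroup.mk_surjective a
      exact (QuotientGroup.eq_one_iff _).2 (hsq x)
    intro a b
    have ia : ∀ c : Q, c⁻¹ = c := fun c => inv_eq_of_mul_eq_one_left (hsq1 c)
    rw [← ia (a * b), mul_inv_rev, ia, ia]
  letI : CommGroup Q := { (inferInstance : Group Q) with mul_comm := hQcomm }
  letI : Fintype Q := Fintype.ofFinite Q
  have hQ : Fintype.card Q = 16 := by
    have := Subgroup.card_eq_card_quotient_mul_card_subgroup Z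
    rw [hcard, hZ, Nat.card_eq_fintype_card] at this
    change 64 = Fintype.card Q * 4 at this
    omega
  have hshift : ∀ (x : P) (c : P), c ∈ Z → x * c * (x * c) = x * x := fun x c hc => by
    have hcx : c * x = x * c := (Subgroup.mem_center_iff.1 hc x).symm
    rw [mul_assoc, ← mul_assoc c, hcx, mul_assoc, hexp c hc, mul_one]
  let g : Q → ZMod 2 := fun a => h (Quotient.out a * Quotient.out a)
  have hg : ∀ x : P, g (x : Q) = h (x * x) := fun x => by
    obtain ⟨c, hc⟩ := QuotientGroup.mk_out_eq_mul Z x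
    show h (Quotient.out (x : Q) * Quotient.out (x : Q)) = _
    rw [hc, hshift x c c.2]
  let k : P → P → P := fun x y => x * y * x⁻¹ * y⁻¹
  have hk : ∀ x y, k x y ∈ Z := fun x y => (QuotientGroup.eq_one_iff _).1 (by
    show ((x * y * x⁻¹ * y⁻¹ : P) : Q) = 1
    rw [QuotientGroup.mk_mul, QuotientGroup.mk_mul, QuotientGroup.mk_mul, QuotientGroup.mk_inv,
      QuotientGroup.mk_inv]
    rw [mul_comm (x : Q) y, mul_inv_cancel_right, mul_inv_cancel])
  have hxy : ∀ x y, h (x * y * (x * y)) + h (x * x) + h (y * y) = h (k x y) := by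
    intro x y
    have e : x * y * (x * y) = k x y * (y * y) * (x * x) := by
      have hx : x⁻¹ = x * (x * x)⁻¹ := by group
      have hy : y⁻¹ = y * (y * y)⁻¹ := by group
      have c1 := Subgroup.mem_center_iff.1 (hsq x)
      have c2 := Subgroup.mem_center_iff.1 (hsq y)
      show x * y * (x * y) = x * y * x⁻¹ * y⁻¹ * (y * y) * (x * x)
      rw [show x * y * x⁻¹ * y⁻¹ * (y * y) = x * y * x⁻¹ * y by group]
      rw [mul_assoc (x * y * x⁻¹), c1 y, ← mul_assoc]
      group
    rw [e, hadd _ (mul_mem (hk x y) (hsq y)) _ (hsq x), hadd _ (hk x y) _ (hsq y)]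
    generalize h (k x y) = a
    generalize h (x * x) = b
    generalize h (y * y) = c
    revert a b c; decide
  have hkmul : ∀ x y w, k (x * y) w = k x w * k y w := by
    intro x y w
    show x * y * w * (x * y)⁻¹ * w⁻¹ = k x w * k y w
    have : x * y * w * (x * y)⁻¹ * w⁻¹ = x * k y w * x⁻¹ * k x w := by simp only [k]; group
    rw [this, Subgroup.mem_center_iff.1 (hk y w) x, mul_assoc (k y w), mul_inv_cancel, mul_one,
      Subgroup.mem_center_iff.1 (hk x w) (k y w)]
  have hB : ∀ a b c : Q, g (a * b * c) + g (a * b) + g c =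
      (g (a * c) + g a + g c) + (g (b * c) + g b + g c) := by
    intro a b c
    obtain ⟨x, rfl⟩ := QuotientGroup.mk_surjective a
    obtain ⟨y, rfl⟩ := QuotientGroup.mk_surjective b
    obtain ⟨w, rfl⟩ := QuotientGroup.mk_surjective c
    rw [← QuotientGroup.mk_mul, ← QuotientGroup.mk_mul, ← QuotientGroup.mk_mul,
      ← QuotientGroup.mk_mul, hg, hg, hg, hg, hg, hg, hg, hxy, hxy, hxy, hkmul,
      hadd _ (hk x w) _ (hk y w)]
  -- the fixed subgroup of `τ` on the quotient
  have hτZ : ∀ c ∈ Z, τ c ∈ Z := fun c hc => Subgroup.mem_center_iff.2 fun y => by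
    obtain ⟨y, rfl⟩ := τ.surjective y
    rw [← map_mul, ← map_mul, Subgroup.mem_center_iff.1 hc y]
  let τQ : Q →* Q := QuotientGroup.map Z Z τ.toMonoidHom hτZ
  have hτQ : ∀ a, τQ (τQ a) = a := fun a => by
    obtain ⟨x, rfl⟩ := QuotientGroup.mk_surjective a
    show ((τ (τ x) : P) : Q) = (x : Q)
    exact (QuotientGroup.eq.2 (hτ2 x)).symm
  let d : Q →* Q := { toFun := fun a => a⁻¹ * τQ a, map_one' := by simp,
                      map_mul' := fun a b => by rw [map_mul, mul_inv, mul_mul_mul_comm] }
  have hrange : d.range ≤ d.ker := by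
    rintro _ ⟨a, rfl⟩
    rw [MonoidHom.mem_ker]
    show (a⁻¹ * τQ a)⁻¹ * τQ (a⁻¹ * τQ a) = 1
    have hsq1 : ∀ b : Q, b * b = 1 := fun b => by
      obtain ⟨x, rfl⟩ := QuotientGroup.mk_surjective b
      exact (QuotientGroup.eq_one_iff _).2 (hsq x)
    rw [map_mul, map_inv, hτQ, mul_inv, inv_inv,
      inv_eq_of_mul_eq_one_left (hsq1 (τQ a))]
    calc a * τQ a * (τQ a * a) = a * (τQ a * τQ a) * a := by group
      _ = 1 := by rw [hsq1, mul_one, hsq1]
  have h4 : 2 ^ 2 ∣ Nat.card d.ker := by
    have h1 := Subgroup.card_mul_index d.ker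
    rw [Subgroup.index_ker, Nat.card_eq_fintype_card (α := Q), hQ] at h1
    have h2 := Subgroup.card_dvd_of_le hrange
    have h3 : Nat.card d.ker ∣ 16 := Dvd.intro _ h1
    have h5 := Nat.le_of_dvd Nat.card_pos h2
    obtain ⟨i, hi, e⟩ := (Nat.dvd_prime_pow Nat.prime_two).1 (show Nat.card d.ker ∣ 2 ^ 4 from h3)
    rw [e] at h1 h5 ⊢
    refine pow_dvd_pow 2 ?_
    by_contra hi2
    have : 2 ^ i ≤ 2 := (Nat.pow_le_pow_right (by norm_num) (by omega : i ≤ 1)).trans (by norm_num)
    nlinarith
  haveI : Fact (Nat.Prime 2) := ⟨Nat.prime_two⟩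
  obtain ⟨W₀, hW₀⟩ := Sylow.exists_subgroup_card_pow_prime 2 h4
  refine zeros_ne_six hQ g hB (W₀.map d.ker.subtype) ?_ ?_ ?_
  · rw [Subgroup.card_map_of_injective (Subgroup.subtype_injective _), hW₀]; norm_num
  · rintro _ ⟨⟨a, ha⟩, -, rfl⟩
    obtain ⟨x, rfl⟩ := QuotientGroup.mk_surjective a
    show g (x : Q) = 0
    rw [hg]
    have hc : x⁻¹ * τ x ∈ Z := by
      rw [← QuotientGroup.eq_one_iff, QuotientGroup.mk_mul, QuotientGroup.mk_inv]
      exact MonoidHom.mem_ker.1 ha
    have hfix : τ (x * x) = x * x := by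
      have e : τ x = x * (x⁻¹ * τ x) := by group
      rw [map_mul, e, hshift x _ hc]
    rcases hcases _ (hsq x) with e | e | e | e
    · rw [e, h_one]
    · rw [e, h_z]
    · rw [e, hτu] at hfix; exact absurd hfix zuu
    · rw [e, map_mul, hτz, hτu, ← mul_assoc, hexp z hz, one_mul] at hfix
      exact absurd hfix.symm zuu
  · -- six zeros
    let A : P → Finset P := fun c => Finset.univ.filter fun x => x * x = c
    have hσA : ∀ c, (A (σ c)).card = (A c).card := fun c => by
      refine (Finset.card_bij' (fun x _ => σ x) (fun x _ => σ.symm x) ?_ ?_ ?_ ?_).symm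
      · intro x hx
        simp only [A, Finset.mem_filter, Finset.mem_univ, true_and] at hx ⊢
        rw [← map_mul, hx]
      · intro x hx
        simp only [A, Finset.mem_filter, Finset.mem_univ, true_and] at hx ⊢
        rw [← map_mul, hx, MulEquiv.symm_apply_apply]
      · intro x _; exact σ.symm_apply_apply x
      · intro x _; exact σ.apply_symm_apply x
    have hA1 : (A 1).card = 4 := by
      rw [← hZ, Nat.card_eq_fintype_card, ← Fintype.card_coe]
      refine Fintype.card_congr (Equiv.subtypeEquivRight fun x => ?_)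
      simp only [A, Finset.mem_filter, Finset.mem_univ, true_and]
      exact ⟨hinv x, hexp x⟩
    have hAu : (A u).card = (A z).card := by rw [← hσA u, hσu]
    have hAzu : (A (z * u)).card = (A z).card := by rw [← hσz, hσA]
    have htot : (A 1).card + (A z).card + (A u).card + (A (z * u)).card = 64 := by
      have hf := Finset.card_eq_sum_card_fiberwise (s := (Finset.univ : Finset P))
        (f := fun x => x * x) (t := ({1, z, u, z * u} : Finset P)) (fun x _ => by
          rcases hcases _ (hsq x) with e | e | e | e <;> simp [e])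
      rw [Finset.card_univ, ← Nat.card_eq_fintype_card, hcard] at hf
      rw [hf, Finset.sum_insert (by simp [Ne.symm hz1, Ne.symm hu1, Ne.symm zu1]),
        Finset.sum_insert (by simp [Ne.symm huz, Ne.symm zuz]),
        Finset.sum_insert (by simp [Ne.symm zuu]), Finset.sum_singleton]
      simp only [A]; ring
    have hpre : Nat.card {x : P // h (x * x) = 0} = 24 := by
      rw [Nat.card_eq_fintype_card, Fintype.card_subtype]
      have : (Finset.univ.filter fun x : P => h (x * x) = 0) = A 1 ∪ A z := by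
        ext x
        simp only [A, Finset.mem_filter, Finset.mem_univ, true_and, Finset.mem_union]
        simp [h]; tauto
      rw [this, Finset.card_union_of_disjoint (Finset.disjoint_left.2 fun x h1 h2 => by
        simp only [A, Finset.mem_filter, Finset.mem_univ, true_and] at h1 h2
        exact hz1 (h2.symm.trans h1)), hA1]
      omega
    have e := Nat.card_congr (QuotientGroup.preimageMkEquivSubgroupProdSet Z {a : Q | g a = 0})
    rw [Nat.card_prod, hZ] at e
    have e2 : (QuotientGroup.mk : P → Q) ⁻¹' {a : Q | g a = 0} = {x : P | h (x * x) = 0} := by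
      ext x
      show g (x : Q) = 0 ↔ h (x * x) = 0
      rw [hg]
    rw [e2] at e
    change Nat.card {x : P // h (x * x) = 0} = 4 * Nat.card {a : Q // g a = 0} at e
    omega

/-- The same for a group isomorphic to a Sylow 2-subgroup of `PSU(3, 4)`. -/
theorem false_of_unitary {P : Type u} [Group P] [Finite P] {F : Type v} [Field F] [Fintype F]
    (hF : Fintype.card F = 16) (Q : Sylow 2 (Cfsg.PSU 3 F 4))
    (e : P ≃* (Q : Subgroup (Cfsg.PSU 3 F 4))) (σ τ : MulAut P) (z u : P)
    (hz : z ∈ Subgroup.center P) (hu : u ∈ Subgroup.center P) (hz1 : z ≠ 1) (hu1 : u ≠ 1)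
    (huz : u ≠ z) (hσz : σ z = z * u) (hσu : σ u = z) (hτz : τ z = z) (hτu : τ u = z * u)
    (hτ2 : ∀ x : P, x⁻¹ * τ (τ x) ∈ Subgroup.center P) : False := by
  obtain ⟨ρ, hρ⟩ := Cfsg.Agent.S1237.u64_of_sylow hF Q
  have hc : ∀ x : P, x ∈ Subgroup.center P ↔
      e x ∈ Subgroup.center (Q : Subgroup (Cfsg.PSU 3 F 4)) := fun x => by
    simp only [Subgroup.mem_center_iff]
    constructor
    · intro h y
      obtain ⟨y, rfl⟩ := e.surjective y
      rw [← map_mul, ← map_mul, h]
    · intro h y
      refine e.injective ?_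
      rw [map_mul, map_mul, h]
  refine false_of_swap ((Nat.card_congr e.toEquiv).trans hρ.card)
    ((Nat.card_congr (e.toEquiv.subtypeEquiv hc)).trans hρ.cardZ)
    (fun x => (hc _).2 (by rw [map_mul]; exact hρ.sq _))
    (fun x hx => (hc _).2 (hρ.inv _ (by rw [← map_mul, hx, map_one])))
    (fun x hx => e.injective (by rw [map_mul, hρ.expZ _ ((hc x).1 hx), map_one]))
    σ τ z u hz hu hz1 hu1 huz hσz hσu hτz hτu hτ2

end Cfsg.Agent.TwoRankTwo
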